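import Cfsg.Agent.H11.L16.ElimR

/-!
# S5916 (helper11): nested brackets of combinations of root vectors

`br_cmb` : `[cmb ν L, cmb μ M] = cmb (pr B ν μ) (brL B L M)` if no two roots are opposite (`okP B L M`), where
`pr B ν μ n = ν (n / B) * μ (n % B)`.
-/

set_option autoImplicit false
set_option maxRecDepth 100000

namespace Cfsg.Agent.H11.L16

open Cfsg Cfsg.Lie
open Cfsg.Agent.H939.L64 (KK LK brK)
open Cfsg.Agent.H413.L16 (er hv hr tg nr br_rr br_neg er_ge er_of tg_le)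
open Cfsg.Agent.H939.L16 Cfsg.Agent.H955.L16

/-- products of coefficients -/
noncomputable def pr (B : ℕ) (ν μ : ℕ → KK) (n : ℕ) : KK := ν (n / B) * μ (n % B)

def brL1 (B : ℕ) (p : ℕ × ℕ) : List (ℕ × ℕ) → List (ℕ × ℕ)
  | [] => []
  | q :: M => bif Nat.blt (tg p.1 q.1) 240 then (tg p.1 q.1, p.2 * B + q.2) :: brL1 B p M else brL1 B p M

/-- the bracket on lists -/
def brL (B : ℕ) : List (ℕ × ℕ) → List (ℕ × ℕ) → List (ℕ × ℕ)
  | [], _ => []
  | p :: L, M => brL1 B p M ++ brL B L M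

def okP1 (B : ℕ) (p : ℕ × ℕ) (M : List (ℕ × ℕ)) : Bool :=
  M.all fun q => !(Nat.beq q.1 (239 - p.1)) && Nat.blt q.2 B && Nat.blt q.1 240

/-- the checks -/
def okP (B : ℕ) (L M : List (ℕ × ℕ)) : Bool := Nat.blt 0 B && L.all fun p => Nat.blt p.1 240 && okP1 B p M

theorem pr_eq {B : ℕ} (hB : 0 < B) (ν μ : ℕ → KK) (a : ℕ) {b : ℕ} (hb : b < B) : pr B ν μ (a * B + b) = ν a * μ b := by
  unfold pr
  rw [Nat.add_mod, Nat.mul_mod_left, zero_add, Nat.mod_mod, Nat.mod_eq_of_lt hb, mul_comm a B,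
    Nat.mul_add_div hB, Nat.div_eq_of_lt hb, add_zero]

theorem br_cmb1 {B : ℕ} (hB : 0 < B) (ν μ : ℕ → KK) {p : ℕ × ℕ} (hp : p.1 < 240) : ∀ {M : List (ℕ × ℕ)},
    okP1 B p M = true → brK (ν p.2 • er p.1) (cmb μ M) = cmb (pr B ν μ) (brL1 B p M)
  | [], _ => by rw [cmb_nil, br_r0]; rfl
  | q :: M, h => by
    rw [okP1, List.all_cons, Bool.and_eq_true, Bool.and_eq_true, Bool.and_eq_true, Bool.not_eq_true',
      Nat.blt_eq, Nat.blt_eq] at h
    obtain ⟨⟨⟨h1, h2⟩, h3⟩, h4⟩ := h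
    have h5 : q.1 ≠ 239 - p.1 := by
      intro h6
      rw [h6, Nat.beq_refl] at h1
      exact absurd h1 (by decide)
    rw [cmb_cons, br_ar, br_cmb1 hB ν μ hp h4, br_sr, br_sl, br_rr hp h3 h5, smul_smul, brL1]
    by_cases h : tg p.1 q.1 < 240
    · have h7 : Nat.blt (tg p.1 q.1) 240 = true := by rw [Nat.blt_eq]; exact h
      rw [h7, cond_true, cmb_cons, pr_eq hB _ _ _ h2, mul_comm (μ q.2)]
    · have h7 : Nat.blt (tg p.1 q.1) 240 = false := by
        rw [Bool.eq_false_iff]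
        exact fun h2 => h (by rwa [Nat.blt_eq] at h2)
      rw [h7, cond_false, er_ge (s := tg p.1 q.1) (by omega), smul_zero, zero_add]

/-- **brackets** -/
theorem br_cmb {B : ℕ} (ν μ : ℕ → KK) : ∀ {L M : List (ℕ × ℕ)}, okP B L M = true →
    brK (cmb ν L) (cmb μ M) = cmb (pr B ν μ) (brL B L M)
  | [], M, _ => by rw [cmb_nil, br_l0]; rfl
  | p :: L, M, h => by
    rw [okP, List.all_cons, Bool.and_eq_true, Bool.and_eq_true, Bool.and_eq_true, Nat.blt_eq, Nat.blt_eq] at h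
    obtain ⟨h1, ⟨h2, h3⟩, h4⟩ := h
    have h5 : okP B L M = true := by
      rw [okP, Bool.and_eq_true, Nat.blt_eq]
      exact ⟨h1, h4⟩
    rw [cmb_cons, br_al, br_cmb1 h1 ν μ h2 h3, br_cmb ν μ h5, brL, cmb_append]

/-- brackets with a normal form -/
theorem br_eq {B : ℕ} {L M P : List (ℕ × ℕ)} (hc : (okP B L M && decide (nf (brL B L M) = P)) = true) (ν μ : ℕ → KK) :
    brK (cmb ν L) (cmb μ M) = cmb (pr B ν μ) P := by
  rw [Bool.and_eq_true, decide_eq_true_iff] at hc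
  rw [br_cmb ν μ hc.1, ← cmb_nf, hc.2]

end Cfsg.Agent.H11.L16
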